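import Cfsg.Agent.Chev.E6Cubic.Data
import Cfsg.Prelude.Def_E6

/-!
The cubic form on 27 coordinates, its polarisations, and the root matrices.
-/

set_option autoImplicit false

universe u

namespace Cfsg.Agent.Chev.E6Cubic

open scoped Matrix MatrixGroups

/-! ### Coordinates -/

/-- Coordinate of a vector, zero out of range. -/
def cw {F : Type u} [Zero F] (v : Fin 27 → F) (n : ℕ) : F := if h : n < 27 then v ⟨n, h⟩ else 0

theorem cw_val {F : Type u} [Zero F] (v : Fin 27 → F) (w : Fin 27) : cw v w = v w := dif_pos w.isLt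

/-- The basis vector. -/
def bv (F : Type u) [Zero F] [One F] (n : ℕ) : Fin 27 → F := fun w => if (w : ℕ) = n then 1 else 0

theorem cw_bv {F : Type u} [Zero F] [One F] {m : ℕ} (n : ℕ) (hm : m < 27) :
    cw (bv F n) m = if m = n then 1 else 0 := dif_pos hm

variable {F : Type u} [Field F]

theorem cw_add (x y : Fin 27 → F) (n : ℕ) : cw (x + y) n = cw x n + cw y n := by
  unfold cw; split <;> simp

theorem cw_smul (s : F) (x : Fin 27 → F) (n : ℕ) : cw (s • x) n = s * cw x n := by
  unfold cw; split <;> simp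

theorem cw_sub (x y : Fin 27 → F) (n : ℕ) : cw (x - y) n = cw x n - cw y n := by
  unfold cw; split <;> simp

theorem cw_zero (n : ℕ) : cw (0 : Fin 27 → F) n = 0 := by
  unfold cw; split <;> simp

/-! ### The form -/

/-- Sign of a bit. -/
def sb (b : Bool) : F := bif b then -1 else 1

theorem sb_ne_zero (b : Bool) : (sb b : F) ≠ 0 := by cases b <;> simp [sb]

/-- One monomial. -/
def term (v : Fin 27 → F) (T : ℕ × ℕ × ℕ × Bool) : F :=
  sb T.2.2.2 * (cw v T.1 * cw v T.2.1 * cw v T.2.2.1)

/-- One polarised monomial. -/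
def termB (x y z : Fin 27 → F) (T : ℕ × ℕ × ℕ × Bool) : F :=
  sb T.2.2.2 * (cw x T.1 * cw y T.2.1 * cw z T.2.2.1 + cw x T.1 * cw z T.2.1 * cw y T.2.2.1 +
    cw y T.1 * cw x T.2.1 * cw z T.2.2.1 + cw y T.1 * cw z T.2.1 * cw x T.2.2.1 +
    cw z T.1 * cw x T.2.1 * cw y T.2.2.1 + cw z T.1 * cw y T.2.1 * cw x T.2.2.1)

/-- One monomial polarised once. -/
def termQ (x z : Fin 27 → F) (T : ℕ × ℕ × ℕ × Bool) : F :=
  sb T.2.2.2 * (cw x T.1 * cw x T.2.1 * cw z T.2.2.1 + cw x T.1 * cw z T.2.1 * cw x T.2.2.1 +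
    cw z T.1 * cw x T.2.1 * cw x T.2.2.1)

/-- The cubic form. -/
def T27 (v : Fin 27 → F) : F := (triL.map (term v)).sum

/-- Its full polarisation. -/
def B27 (x y z : Fin 27 → F) : F := (triL.map (termB x y z)).sum

/-- Its quadratic-linear part. -/
def Q27 (x z : Fin 27 → F) : F := (triL.map (termQ x z)).sum

theorem polar (x y z : Fin 27 → F) :
    T27 (x + y + z) - T27 (x + y) - T27 (x + z) - T27 (y + z) + T27 x + T27 y + T27 z = B27 x y z := by
  unfold T27 B27
  induction triL with
  | nil => simp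
  | cons T L ih =>
    simp only [List.map_cons, List.sum_cons, term, termB, cw_add]
    linear_combination ih

theorem smul_add_eq (s : F) (x z : Fin 27 → F) :
    T27 (s • x + z) - T27 z - s * (T27 (x + z) - T27 z) = (s ^ 2 - s) * Q27 x z + (s ^ 3 - s) * T27 x := by
  unfold T27 Q27
  induction triL with
  | nil => simp
  | cons T L ih =>
    simp only [List.map_cons, List.sum_cons, term, termQ, cw_add, cw_smul]
    linear_combination ih

/-- A singular point: the form is affine along it. -/
def Sing (x : Fin 27 → F) : Prop := ∀ (s : F) (z : Fin 27 → F),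
  T27 (s • x + z) = T27 z + s * (T27 (x + z) - T27 z)

theorem triL_ok : ∀ T ∈ triL, T.1 < 27 ∧ T.2.1 < 27 ∧ T.2.2.1 < 27 ∧
    T.1 ≠ T.2.1 ∧ T.1 ≠ T.2.2.1 ∧ T.2.1 ≠ T.2.2.1 := by
  decide +kernel

theorem sing_bv (n : ℕ) : Sing (bv F n) := by
  intro s z
  have h : Q27 (bv F n) z = 0 ∧ T27 (bv F n) = 0 := by
    constructor <;> refine List.sum_eq_zero ?_ <;> intro a ha <;>
      obtain ⟨T, hT, rfl⟩ := List.mem_map.mp ha <;>
      obtain ⟨h1, h2, h3, n1, n2, n3⟩ := triL_ok T hT <;>
      simp only [termQ, term, cw_bv _ h1, cw_bv _ h2, cw_bv _ h3] <;>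
      by_cases e1 : T.1 = n <;> by_cases e2 : T.2.1 = n <;> by_cases e3 : T.2.2.1 = n <;>
      first
        | exact absurd (e1.trans e2.symm) n1
        | exact absurd (e1.trans e3.symm) n2
        | exact absurd (e2.trans e3.symm) n3
        | simp [e1, e2, e3]
  have := smul_add_eq s (bv F n) z
  rw [h.1, h.2, mul_zero, mul_zero, add_zero] at this
  linear_combination this

theorem sing_Q {x : Fin 27 → F} (h : Sing x) (hs : ∃ s : F, s ≠ 0 ∧ s ≠ 1) (z : Fin 27 → F) : Q27 x z = 0 := by
  have h0 : T27 (0 : Fin 27 → F) = 0 := by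
    refine List.sum_eq_zero fun a ha => ?_
    obtain ⟨T, -, rfl⟩ := List.mem_map.mp ha
    simp [term, cw_zero]
  have hQ0 : Q27 x (0 : Fin 27 → F) = 0 := by
    refine List.sum_eq_zero fun a ha => ?_
    obtain ⟨T, -, rfl⟩ := List.mem_map.mp ha
    simp [termQ, cw_zero]
  obtain ⟨s, s0, s1⟩ := hs
  have a := smul_add_eq s x (0 : Fin 27 → F)
  have b := smul_add_eq s x z
  rw [h s 0, hQ0] at a
  rw [h s z] at b
  have hne : s ^ 2 - s ≠ 0 := by
    rw [show s ^ 2 - s = s * (s - 1) by ring]
    exact mul_ne_zero s0 (sub_ne_zero.mpr s1)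
  refine (mul_eq_zero.mp (show (s ^ 2 - s) * Q27 x z = 0 from ?_)).resolve_left hne
  linear_combination a - b

/-! ### The isometry group -/

/-- The isometries. -/
def stab (F : Type u) [Field F] : Subgroup (GL (Fin 27) F) := Cfsg.Lie.funStab F T27

theorem stab_T {g : GL (Fin 27) F} (hg : g ∈ stab F) (v : Fin 27 → F) :
    T27 ((g : Matrix (Fin 27) (Fin 27) F) *ᵥ v) = T27 v := hg v

theorem exists_preimage (g : GL (Fin 27) F) (z : Fin 27 → F) :
    ∃ z', (g : Matrix (Fin 27) (Fin 27) F) *ᵥ z' = z :=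
  ⟨((g⁻¹ : GL (Fin 27) F) : Matrix (Fin 27) (Fin 27) F) *ᵥ z, by
    rw [Matrix.mulVec_mulVec, Units.mul_inv, Matrix.one_mulVec]⟩

theorem stab_B {g : GL (Fin 27) F} (hg : g ∈ stab F) (x y z : Fin 27 → F) :
    B27 ((g : Matrix (Fin 27) (Fin 27) F) *ᵥ x) ((g : Matrix (Fin 27) (Fin 27) F) *ᵥ y)
      ((g : Matrix (Fin 27) (Fin 27) F) *ᵥ z) = B27 x y z := by
  simp only [← polar, ← Matrix.mulVec_add, stab_T hg]

theorem stab_sing {g : GL (Fin 27) F} (hg : g ∈ stab F) {x : Fin 27 → F} (hx : Sing x) :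
    Sing ((g : Matrix (Fin 27) (Fin 27) F) *ᵥ x) := by
  intro s z
  obtain ⟨z', rfl⟩ := exists_preimage g z
  rw [← Matrix.mulVec_smul, ← Matrix.mulVec_add, ← Matrix.mulVec_add, stab_T hg, stab_T hg, stab_T hg]
  exact hx s z'

/-! ### The root matrices -/

/-- The code of a row. -/
noncomputable def code (r w : ℕ) : ℕ := slice (rowT.get r) 6 w

/-- The source of a code. -/
def src (c : ℕ) : ℕ := (c - 1) / 2

/-- The sign of a code. -/
def sc (c : ℕ) : F := ((sgn (c - 1) : ℤ) : F)

theorem sc_ne_zero (c : ℕ) : (sc c : F) ≠ 0 := by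
  rcases sgn_cases (c - 1) with h | h <;> simp [sc, h]

theorem sc_mul_self (c : ℕ) : (sc c : F) * sc c = 1 := by
  rcases sgn_cases (c - 1) with h | h <;> simp [sc, h]

/-- The row functional of a code. -/
def ev (v : Fin 27 → F) (c : ℕ) : F := if c = 0 then 0 else sc c * cw v (src c)

/-- The matrix of a root. -/
noncomputable def rm (F : Type u) [Field F] (r : ℕ) : Matrix (Fin 27) (Fin 27) F :=
  Matrix.of fun w u => ev (bv F u) (code r w)

theorem cw_expand (v : Fin 27 → F) (n : ℕ) : cw v n = ∑ u : Fin 27, cw (bv F u) n * v u := by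
  by_cases hn : n < 27
  · rw [Finset.sum_eq_single (⟨n, hn⟩ : Fin 27)]
    · rw [cw_bv _ hn]; simp [cw, hn]
    · intro u _ hu
      have : n ≠ (u : ℕ) := fun e => hu (Fin.ext e.symm)
      rw [cw_bv _ hn]; simp [this]
    · simp
  · simp [cw, hn]

theorem rm_mulVec (r : ℕ) (v : Fin 27 → F) (w : Fin 27) : (rm F r *ᵥ v) w = ev v (code r w) := by
  show ∑ u : Fin 27, ev (bv F u) (code r w) * v u = _
  unfold ev
  split
  · simp
  · rw [cw_expand v, Finset.mul_sum]
    exact Finset.sum_congr rfl fun u _ => by ring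

theorem cw_rm_mulVec {n : ℕ} (hn : n < 27) (r : ℕ) (v : Fin 27 → F) : cw (rm F r *ᵥ v) n = ev v (code r n) := by
  rw [cw, dif_pos hn, rm_mulVec]

/-- The code of a row of a product. -/
noncomputable def comp (c s : ℕ) : ℕ :=
  if c = 0 then 0 else
    if code s (src c) = 0 then 0 else 1 + 2 * src (code s (src c)) + (c - 1 + (code s (src c) - 1)) % 2

/-- All sources are in range. -/
noncomputable def okRange : Bool := allBelow (fun r => allBelow (fun w => Nat.blt (src (code r w)) 27) 27) 72

theorem okRange_ok : okRange = true := by decide +kernel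

theorem src_lt {r w : ℕ} (hr : r < 72) (hw : w < 27) : src (code r w) < 27 := by
  have h := okRange_ok
  simp only [okRange, allBelow_iff] at h
  exact Nat.blt_eq.mp (h r hr w hw)

theorem sgn_add (a b : ℕ) : sgn (a + b) = sgn a * sgn b := by
  rw [sgn_eq_pow, sgn_eq_pow, sgn_eq_pow, pow_add]

theorem ev_comp {c s : ℕ} (v : Fin 27 → F) (h : c = 0 ∨ src c < 27) :
    ev v (comp c s) = ev (rm F s *ᵥ v) c := by
  by_cases hc : c = 0
  · simp [comp, ev, hc]
  · have hlt : src c < 27 := h.resolve_left hc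
    rw [show ev (rm F s *ᵥ v) c = sc c * cw (rm F s *ᵥ v) (src c) from if_neg hc, cw_rm_mulVec hlt]
    by_cases hd : code s (src c) = 0
    · simp [comp, ev, hc, hd]
    · set d := code s (src c) with hd'
      have e : comp c s = 1 + 2 * src d + (c - 1 + (d - 1)) % 2 := by
        unfold comp; rw [if_neg hc, ← hd', if_neg hd]
      have hne : comp c s ≠ 0 := by omega
      rw [show ev v (comp c s) = sc (comp c s) * cw v (src (comp c s)) from if_neg hne,
        show ev v d = sc d * cw v (src d) from if_neg hd]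
      have hs : src (comp c s) = src d := by
        rw [e]; unfold src; omega
      have hp : (sc (comp c s) : F) = sc c * sc d := by
        unfold sc
        rw [← Int.cast_mul, ← sgn_add]
        congr 1
        rw [e, sgn_eq_pow, sgn_eq_pow, neg_one_pow_eq_pow_mod_two,
          neg_one_pow_eq_pow_mod_two (n := c - 1 + (d - 1))]
        congr 1
        omega
      rw [hs, hp]; ring

theorem rm_mul_mulVec {r : ℕ} (hr : r < 72) (s : ℕ) (v : Fin 27 → F) (w : Fin 27) :
    ((rm F r * rm F s) *ᵥ v) w = ev v (comp (code r w) s) := by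
  rw [← Matrix.mulVec_mulVec, rm_mulVec, ev_comp v (Or.inr (src_lt hr w.isLt))]

theorem mat_ext_mulVec {A B : Matrix (Fin 27) (Fin 27) F} (h : ∀ v w, (A *ᵥ v) w = (B *ᵥ v) w) : A = B := by
  ext w u
  have := h (Pi.single u 1) w
  simpa [Matrix.mulVec_single_one] using this

/-- `R² = 0`. -/
noncomputable def okSq : Bool := allBelow (fun r => allBelow (fun w => Nat.beq (comp (code r w) r) 0) 27) 72

theorem okSq_ok : okSq = true := by decide +kernel

theorem rm_sq {r : ℕ} (hr : r < 72) : rm F r * rm F r = 0 := by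
  have h := okSq_ok
  simp only [okSq, allBelow_iff] at h
  refine mat_ext_mulVec fun v w => ?_
  rw [rm_mul_mulVec hr, Nat.eq_of_beq_eq_true (h r hr w w.isLt)]
  simp [ev]

open Classical in
/-- The root element. -/
noncomputable def xm (F : Type u) [Field F] (r : ℕ) (t : F) : GL (Fin 27) F :=
  if hr : r < 72 then
    ⟨1 + t • rm F r, 1 - t • rm F r, by
      simp [mul_sub, add_mul, rm_sq hr], by
      simp [sub_mul, mul_add, rm_sq hr]⟩
  else 1

theorem coe_xm {r : ℕ} (hr : r < 72) (t : F) :
    (xm F r t : Matrix (Fin 27) (Fin 27) F) = 1 + t • rm F r := by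
  rw [xm, dif_pos hr]

theorem xm_add (r : ℕ) (t u : F) : xm F r t * xm F r u = xm F r (t + u) := by
  by_cases hr : r < 72
  · apply Units.ext
    rw [Units.val_mul, coe_xm hr, coe_xm hr, coe_xm hr]
    simp [mul_add, add_mul, rm_sq hr, add_smul]
    abel
  · simp [xm, hr]

theorem xm_mulVec {r : ℕ} (hr : r < 72) (t : F) (v : Fin 27 → F) {n : ℕ} (hn : n < 27) :
    cw ((xm F r t : Matrix (Fin 27) (Fin 27) F) *ᵥ v) n = cw v n + t * ev v (code r n) := by
  rw [coe_xm hr, Matrix.add_mulVec, Matrix.one_mulVec, Matrix.smul_mulVec, cw_add, cw_smul,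
    cw_rm_mulVec hn]

/-! ### The root elements preserve the form -/

/-- Sorted key of a monomial. -/
def sort3 (a b c : ℕ) : ℕ :=
  let mn := min a (min b c)
  let mx := max a (max b c)
  mn * 729 + (a + b + c - mn - mx) * 27 + mx

/-- Value of a key. -/
def kval (v : Fin 27 → F) (k : ℕ) : F := cw v (k / 729) * cw v (k / 27 % 27) * cw v (k % 27)

theorem kval_sort3 (v : Fin 27 → F) {a b c : ℕ} (ha : a < 27) (hb : b < 27) (hc : c < 27) :
    kval v (sort3 a b c) = cw v a * cw v b * cw v c := by
  have key : ∀ x y z : ℕ, x < 27 → y < 27 → z < 27 →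
      kval v (x * 729 + y * 27 + z) = cw v x * cw v y * cw v z := by
    intro x y z hx hy hz
    unfold kval
    rw [show (x * 729 + y * 27 + z) / 729 = x by omega, show (x * 729 + y * 27 + z) / 27 % 27 = y by omega,
      show (x * 729 + y * 27 + z) % 27 = z by omega]
  unfold sort3
  rcases le_total a b with h1 | h1 <;> rcases le_total b c with h2 | h2 <;> rcases le_total a c with h3 | h3 <;>
    simp only [min_def, max_def] <;> split_ifs <;> (try omega) <;>
    rw [key _ _ _ (by omega) (by omega) (by omega)] <;>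
    first
      | (rw [show a + b + c - a - c = b by omega])
      | (rw [show a + b + c - a - b = c by omega]; ring)
      | (rw [show a + b + c - b - c = a by omega]; ring)
      | (rw [show a + b + c - b - a = c by omega]; ring)
      | (rw [show a + b + c - c - a = b by omega]; ring)
      | (rw [show a + b + c - c - b = a by omega]; ring)

/-- The first-order term of `x_r` on a monomial, if any. -/
noncomputable def shiftTerm (r : ℕ) (T : ℕ × ℕ × ℕ × Bool) : List (Bool × ℕ) :=
  if code r T.1 ≠ 0 then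
    [(xor T.2.2.2 ((code r T.1 - 1) % 2 == 1), sort3 (src (code r T.1)) T.2.1 T.2.2.1)]
  else if code r T.2.1 ≠ 0 then
    [(xor T.2.2.2 ((code r T.2.1 - 1) % 2 == 1), sort3 T.1 (src (code r T.2.1)) T.2.2.1)]
  else if code r T.2.2.1 ≠ 0 then
    [(xor T.2.2.2 ((code r T.2.2.1 - 1) % 2 == 1), sort3 T.1 T.2.1 (src (code r T.2.2.1)))]
  else []

/-- At most one coordinate moves. -/
noncomputable def oneShift (r : ℕ) (T : ℕ × ℕ × ℕ × Bool) : Bool :=
  Nat.beq ((if code r T.1 = 0 then 0 else 1) + (if code r T.2.1 = 0 then 0 else 1) +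
    (if code r T.2.2.1 = 0 then 0 else 1) - 1) 0

theorem sb_xor (b : Bool) (c : ℕ) : (sb (xor b ((c - 1) % 2 == 1)) : F) = sb b * sc c := by
  unfold sc
  rw [sgn_eq_pow, neg_one_pow_eq_pow_mod_two]
  rcases Nat.mod_two_eq_zero_or_one (c - 1) with h | h <;> cases b <;> simp [sb, h]

theorem term_shift {r : ℕ} (hr : r < 72) (t : F) (v : Fin 27 → F) {T : ℕ × ℕ × ℕ × Bool}
    (hT : T ∈ triL) (h1 : oneShift r T = true) :
    term ((xm F r t : Matrix (Fin 27) (Fin 27) F) *ᵥ v) T =
      term v T + t * ((shiftTerm r T).map fun e => sb e.1 * kval v e.2).sum := by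
  obtain ⟨a, b, c, s⟩ := T
  obtain ⟨ha, hb, hc, -, -, -⟩ := triL_ok _ hT
  simp only at ha hb hc
  simp only [oneShift] at h1
  have h2 := Nat.eq_of_beq_eq_true h1
  simp only [term, shiftTerm, xm_mulVec hr t v ha, xm_mulVec hr t v hb, xm_mulVec hr t v hc]
  by_cases ea : code r a = 0 <;> by_cases eb : code r b = 0 <;> by_cases ec : code r c = 0 <;>
    simp [ea, eb, ec] at h2 <;> simp [ea, eb, ec, ev, sb_xor]
  · rw [kval_sort3 v ha hb (src_lt hr hc)]; ring
  · rw [kval_sort3 v ha (src_lt hr hb) hc]; ring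
  · rw [kval_sort3 v (src_lt hr ha) hb hc]; ring

/-- The first-order terms cancel. -/
noncomputable def okPres (r : ℕ) : Bool :=
  let L := triL.flatMap (shiftTerm r)
  triL.all (oneShift r) &&
    (((L.filter fun e => e.1).map Prod.snd).isPerm ((L.filter fun e => !e.1).map Prod.snd))

theorem okPres_ok : allBelow okPres 72 = true := by decide +kernel

theorem signed_sum (v : Fin 27 → F) (L : List (Bool × ℕ)) :
    (L.map fun e => sb e.1 * kval v e.2).sum =
      (((L.filter fun e => !e.1).map Prod.snd).map (kval v)).sum -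
        (((L.filter fun e => e.1).map Prod.snd).map (kval v)).sum := by
  induction L with
  | nil => simp
  | cons e L ih =>
    obtain ⟨b, k⟩ := e
    cases b <;>
      simp only [List.filter_cons, List.map_cons, List.sum_cons, ih, Bool.not_false, Bool.not_true, if_true,
        Bool.false_eq_true, if_false] <;>
      simp [sb] <;> ring

theorem xm_mem_stab (r : ℕ) (t : F) : xm F r t ∈ stab F := by
  by_cases hr : r < 72
  · have h := (allBelow_iff _ _).mp okPres_ok r hr
    simp only [okPres, Bool.and_eq_true, List.all_eq_true, List.isPerm_iff] at h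
    intro v
    show T27 ((xm F r t : Matrix (Fin 27) (Fin 27) F) *ᵥ v) = T27 v
    have key : ∀ L : List (ℕ × ℕ × ℕ × Bool), (∀ T ∈ L, T ∈ triL) →
        (L.map (term ((xm F r t : Matrix (Fin 27) (Fin 27) F) *ᵥ v))).sum =
          (L.map (term v)).sum + t * ((L.flatMap (shiftTerm r)).map fun e => sb e.1 * kval v e.2).sum := by
      intro L
      induction L with
      | nil => simp
      | cons T L ih =>
        intro hL
        rw [List.map_cons, List.sum_cons, List.map_cons, List.sum_cons, List.flatMap_cons, List.map_append,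
          List.sum_append, ih (fun x hx => hL x (List.mem_cons_of_mem _ hx)),
          term_shift hr t v (hL T List.mem_cons_self) (h.1 T (hL T List.mem_cons_self))]
        ring
    unfold T27
    rw [key triL fun _ hT => hT, signed_sum, (h.2.map (kval v)).sum_eq, sub_self, mul_zero, add_zero]
  · rw [xm, dif_neg hr]; exact one_mem _

end Cfsg.Agent.Chev.E6Cubic
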