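import Cfsg.Agent.Chev.E6Cubic.Script
import Cfsg.Agent.Chev.TableE6

/-!
The diagonal isometries are products of root elements.
-/

set_option autoImplicit false

universe u

namespace Cfsg.Agent.Chev.E6Cubic

open scoped Matrix MatrixGroups

variable {F : Type u} [Field F]

/-- The negative root. -/
def negR (r : ℕ) : ℕ := slice tabE6.negP 8 r

/-- The identities of a root and its negative, on a row. -/
noncomputable def pairRow (r w : ℕ) : Bool :=
  let s := negR r
  let P := comp (code r w) s
  let Q := comp (code s w) r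
  Nat.blt s 72 && Nat.beq (comp P r) (code r w) && Nat.beq (comp Q s) (code s w) &&
    (Nat.beq P 0 || Nat.beq P (1 + 2 * w)) && (Nat.beq Q 0 || Nat.beq Q (1 + 2 * w)) &&
    (Nat.beq P 0 || Nat.beq Q 0)

theorem pairRow_ok : allBelow (fun r => allBelow (pairRow r) 27) 72 = true := by decide +kernel

/-- The weight pairing of `w` with the root `r`. -/
noncomputable def hv (r w : ℕ) (t : F) : F :=
  if comp (code r w) (negR r) ≠ 0 then t else if comp (code (negR r) w) r ≠ 0 then t⁻¹ else 1

theorem ev_one_add (v : Fin 27 → F) {w : ℕ} : ev v (1 + 2 * w) = cw v w := by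
  rw [ev, if_neg (by omega), src, show (1 + 2 * w - 1) / 2 = w by omega, sc,
    show 1 + 2 * w - 1 = 2 * w by omega, sgn_eq_pow, pow_mul]
  simp

theorem root_pair {r : ℕ} (hr : r < 72) :
    negR r < 72 ∧ rm F r * rm F (negR r) * rm F r = rm F r ∧
      rm F (negR r) * rm F r * rm F (negR r) = rm F (negR r) := by
  have h := fun w hw => (allBelow_iff _ _).mp ((allBelow_iff _ _).mp pairRow_ok r hr) w hw
  simp only [pairRow, Bool.and_eq_true] at h
  have hs : negR r < 72 := Nat.blt_eq.mp (h 0 (by norm_num)).1.1.1.1.1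
  have hb : ∀ a b : ℕ, a < 72 → b < 72 → ∀ w < 27, comp (code a w) b = 0 ∨ src (comp (code a w) b) < 27 := by
    intro a b ha hb' w hw
    by_cases h0 : code a w = 0
    · exact Or.inl (by simp [comp, h0])
    · by_cases h1 : code b (src (code a w)) = 0
      · exact Or.inl (by simp [comp, h0, h1])
      · right
        have e : src (comp (code a w) b) = src (code b (src (code a w))) := by
          simp only [comp, if_neg h0, if_neg h1]
          have hsrc : ∀ s x : ℕ, src (1 + 2 * s + x % 2) = s := fun s x => by unfold src; omega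
          exact hsrc _ _
        rw [e]; exact src_lt hb' (src_lt ha hw)
  refine ⟨hs, ?_, ?_⟩
  · refine mat_ext_mulVec fun v w => ?_
    rw [← Matrix.mulVec_mulVec, rm_mul_mulVec hr, ← ev_comp v (hb r _ hr hs w w.isLt),
      Nat.eq_of_beq_eq_true (h w w.isLt).1.1.1.1.2, rm_mulVec]
  · refine mat_ext_mulVec fun v w => ?_
    rw [← Matrix.mulVec_mulVec, rm_mul_mulVec hs, ← ev_comp v (hb (negR r) _ hs hr w w.isLt),
      Nat.eq_of_beq_eq_true (h w w.isLt).1.1.1.2, rm_mulVec]

/-- The element `n_r(t)`. -/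
noncomputable def nm (r : ℕ) (t : F) : GL (Fin 27) F := xm F r t * xm F (negR r) (-t⁻¹) * xm F r t

/-- The element `h_r(t)`. -/
noncomputable def hm (r : ℕ) (t : F) : GL (Fin 27) F := nm r t * nm r (-1)

theorem hm_mem (r : ℕ) (t : F) : hm r t ∈ rootGen F := by
  unfold hm nm
  exact mul_mem (mul_mem (mul_mem (xm_mem_rootGen _ _) (xm_mem_rootGen _ _)) (xm_mem_rootGen _ _))
    (mul_mem (mul_mem (xm_mem_rootGen _ _) (xm_mem_rootGen _ _)) (xm_mem_rootGen _ _))

theorem nm_eq {r : ℕ} (hr : r < 72) {t : F} (ht : t ≠ 0) :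
    (nm r t : Matrix (Fin 27) (Fin 27) F) =
      1 + t • rm F r - t⁻¹ • rm F (negR r) - rm F r * rm F (negR r) - rm F (negR r) * rm F r := by
  obtain ⟨hs, hR, -⟩ := root_pair (F := F) hr
  rw [nm, Units.val_mul, Units.val_mul, coe_xm hr, coe_xm hs]
  simp only [mul_add, add_mul, one_mul, mul_one, smul_mul_assoc, mul_smul_comm, smul_smul, rm_sq hr, hR,
    smul_zero, add_zero, mul_neg, neg_mul, mul_assoc, neg_smul]
  match_scalars <;> field_simp <;> ring

theorem hm_eq {r : ℕ} (hr : r < 72) {t : F} (ht : t ≠ 0) :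
    (hm r t : Matrix (Fin 27) (Fin 27) F) =
      1 + (t - 1) • (rm F r * rm F (negR r)) + (t⁻¹ - 1) • (rm F (negR r) * rm F r) := by
  obtain ⟨hs, hR, hS⟩ := root_pair (F := F) hr
  rw [hm, Units.val_mul, nm_eq hr ht, nm_eq hr (neg_ne_zero.mpr one_ne_zero)]
  set R := rm F r with hR'
  set S := rm F (negR r) with hS'
  have e1 : R * (S * R) = R := by rw [← mul_assoc, hR]
  have e2 : S * (R * S) = S := by rw [← mul_assoc, hS]
  have e3 : ∀ X, R * (R * X) = 0 := fun X => by rw [← mul_assoc, rm_sq hr, zero_mul]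
  have e4 : ∀ X, S * (S * X) = 0 := fun X => by rw [← mul_assoc, rm_sq hs, zero_mul]
  have e5 : ∀ X, R * (S * (R * X)) = R * X := fun X => by rw [← mul_assoc, ← mul_assoc, hR]
  have e6 : ∀ X, S * (R * (S * X)) = S * X := fun X => by rw [← mul_assoc, ← mul_assoc, hS]
  have r0 : R * R = 0 := rm_sq hr
  have s0 : S * S = 0 := rm_sq hs
  simp only [mul_add, add_mul, mul_sub, sub_mul, one_mul, mul_one, smul_mul_assoc, mul_smul_comm, smul_smul,
    mul_assoc, e1, e2, e3, e4, e5, e6, r0, s0, mul_zero, smul_zero, sub_zero, zero_sub, add_zero, zero_add,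
    smul_sub, smul_add, smul_neg]
  match_scalars <;> field_simp <;> ring

theorem hm_mulVec {r : ℕ} (hr : r < 72) {t : F} (ht : t ≠ 0) (v : Fin 27 → F) {w : ℕ} (hw : w < 27) :
    cw ((hm r t : Matrix (Fin 27) (Fin 27) F) *ᵥ v) w = hv r w t * cw v w := by
  have h := (allBelow_iff _ _).mp ((allBelow_iff _ _).mp pairRow_ok r hr) w hw
  simp only [pairRow, Bool.and_eq_true, Bool.or_eq_true] at h
  obtain ⟨⟨⟨-, hP⟩, hQ⟩, hPQ⟩ := h
  obtain ⟨hs, -, -⟩ := root_pair (F := F) hr
  rw [hm_eq hr ht, Matrix.add_mulVec, Matrix.add_mulVec, Matrix.one_mulVec, Matrix.smul_mulVec,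
    Matrix.smul_mulVec, cw_add, cw_add, cw_smul, cw_smul]
  have eP : cw ((rm F r * rm F (negR r)) *ᵥ v) w = ev v (comp (code r w) (negR r)) := by
    rw [cw, dif_pos hw]; exact rm_mul_mulVec hr _ v ⟨w, hw⟩
  have eQ : cw ((rm F (negR r) * rm F r) *ᵥ v) w = ev v (comp (code (negR r) w) r) := by
    rw [cw, dif_pos hw]; exact rm_mul_mulVec hs _ v ⟨w, hw⟩
  rw [eP, eQ, hv]
  have e0 : ev v 0 = (0 : F) := by simp [ev]
  rcases hP with hP | hP <;> rcases hQ with hQ | hQ <;>
    simp [Nat.eq_of_beq_eq_true hP, Nat.eq_of_beq_eq_true hQ, e0, ev_one_add] at hPQ ⊢ <;>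
    ring

/-! ### Diagonal isometries -/

/-- A diagonal matrix with the given weights. -/
structure DiagD (g : GL (Fin 27) F) (d : ℕ → F) : Prop where
  mem : g ∈ stab F
  act : ∀ (v : Fin 27 → F) (w : ℕ), w < 27 → cw ((g : Matrix (Fin 27) (Fin 27) F) *ᵥ v) w = d w * cw v w
  ne : ∀ w < 27, d w ≠ 0

theorem isDiag_diagD {g : GL (Fin 27) F} (hg : g ∈ stab F) (h : IsDiag g) :
    DiagD g (fun w => ent g w w) := by
  refine ⟨hg, fun v w hw => ?_, fun w hw e => ?_⟩
  · have hv : v = ∑ u : Fin 27, v u • bv F u := by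
      funext x
      rw [Finset.sum_apply, Finset.sum_eq_single x]
      · simp [bv]
      · intro u _ hu
        have : (x : ℕ) ≠ u := fun e => hu (Fin.ext e.symm)
        simp [bv, this]
      · simp
    conv_lhs => rw [hv]
    rw [Matrix.mulVec_sum, cw, dif_pos hw, Finset.sum_apply, Finset.sum_eq_single (⟨w, hw⟩ : Fin 27)]
    · rw [Matrix.mulVec_smul, Pi.smul_apply, smul_eq_mul, ent, cw, dif_pos hw, cw, dif_pos hw, mul_comm]
    · intro u _ hu
      rw [Matrix.mulVec_smul, Pi.smul_apply, smul_eq_mul]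
      have := h w hw u u.isLt (fun e => hu (Fin.ext e.symm))
      rw [ent, cw, dif_pos hw] at this
      rw [this, mul_zero]
    · simp
  · refine contra_false (g := g) (C := [w]) (S := []) (by simp) (by simp) (by simpa using hw)
      fun c hc k hk _ => ?_
    rw [List.mem_singleton] at hc
    subst hc
    by_cases hkc : k = c
    · subst hkc; exact e
    · exact h k hk c hw hkc

theorem diagD_hm {g : GL (Fin 27) F} {d : ℕ → F} (hg : DiagD g d) {r : ℕ} (hr : r < 72) {t : F} (ht : t ≠ 0) :
    DiagD (hm r t * g) (fun w => hv r w t * d w) := by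
  refine ⟨mul_mem (rootGen_le_stab (hm_mem r t)) hg.mem, fun v w hw => ?_, fun w hw => ?_⟩
  · rw [Units.val_mul, ← Matrix.mulVec_mulVec, hm_mulVec hr ht _ hw, hg.act v w hw, mul_assoc]
  · refine mul_ne_zero ?_ (hg.ne w hw)
    unfold hv; split_ifs <;> simp [ht]

/-- The support indicator of three weights. -/
def inThree (a b c x : ℕ) : Bool := x == a || x == b || x == c

/-- Each listed triple supports a single monomial. -/
noncomputable def okTriple (e : ℕ × ℕ × ℕ) : Bool :=
  Nat.blt e.1 27 && Nat.blt e.2.1 27 && Nat.blt e.2.2 27 &&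
  match triL.filter (fun T => inThree e.1 e.2.1 e.2.2 T.1 && inThree e.1 e.2.1 e.2.2 T.2.1 &&
      inThree e.1 e.2.1 e.2.2 T.2.2.1) with
  | [T] => Nat.beq (sort3 T.1 T.2.1 T.2.2.1) (sort3 e.1 e.2.1 e.2.2)
  | _ => false

theorem triples_ok : (closeT :: propL).all okTriple = true := by decide +kernel

theorem diag_triple {g : GL (Fin 27) F} {d : ℕ → F} (hg : DiagD g d) {e : ℕ × ℕ × ℕ} (he : okTriple e = true) :
    d e.1 * d e.2.1 * d e.2.2 = 1 := by
  obtain ⟨a, b, c⟩ := e
  simp only [okTriple, Bool.and_eq_true] at he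
  obtain ⟨⟨⟨ha, hb⟩, hc⟩, he⟩ := he
  replace ha := Nat.blt_eq.mp ha
  replace hb := Nat.blt_eq.mp hb
  replace hc := Nat.blt_eq.mp hc
  split at he
  next T hf =>
    let v : Fin 27 → F := fun w => if inThree a b c w then 1 else 0
    have hT : T ∈ triL := by
      have : T ∈ triL.filter (fun T => inThree a b c T.1 && inThree a b c T.2.1 && inThree a b c T.2.2.1) := by
        rw [hf]; exact List.mem_singleton_self T
      exact List.mem_of_mem_filter this
    have hv : ∀ x < 27, cw v x = if inThree a b c x then 1 else 0 := fun x hx => dif_pos hx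
    have key : ∀ x : Fin 27 → F, (∀ y < 27, inThree a b c y = false → cw x y = 0) → T27 x = term x T := by
      intro x hx
      refine sum_one_alive (term x) _ (fun S hS hdead => ?_) hf
      obtain ⟨h1, h2, h3, -, -, -⟩ := triL_ok S hS
      simp only [Bool.and_eq_false_iff] at hdead
      rcases hdead with (h | h) | h
      · simp [term, hx _ h1 h]
      · simp [term, hx _ h2 h]
      · simp [term, hx _ h3 h]
    have h1 := stab_T hg.mem v
    rw [key _ (fun y hy h => by rw [hg.act v y hy, hv y hy, h]; simp),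
      key _ (fun y hy h => by rw [hv y hy, h]; simp)] at h1
    obtain ⟨t1, t2, t3, -, -, -⟩ := triL_ok T hT
    simp only [term, hg.act v _ t1, hg.act v _ t2, hg.act v _ t3] at h1
    have hk := Nat.eq_of_beq_eq_true he
    have hd : d T.1 * d T.2.1 * d T.2.2.1 = d a * d b * d c := by
      let dv : Fin 27 → F := fun w => d w
      have hdv : ∀ x < 27, cw dv x = d x := fun x hx => dif_pos hx
      rw [← hdv _ t1, ← hdv _ t2, ← hdv _ t3, ← hdv _ ha, ← hdv _ hb, ← hdv _ hc,
        ← kval_sort3 dv t1 t2 t3, ← kval_sort3 dv ha hb hc, hk]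
    have hmem : inThree a b c T.1 = true ∧ inThree a b c T.2.1 = true ∧ inThree a b c T.2.2.1 = true := by
      have : T ∈ triL.filter (fun T => inThree a b c T.1 && inThree a b c T.2.1 && inThree a b c T.2.2.1) := by
        rw [hf]; exact List.mem_singleton_self T
      have := (List.mem_filter.mp this).2
      simp only [Bool.and_eq_true] at this
      exact ⟨this.1.1, this.1.2, this.2⟩
    rw [hv _ t1, hv _ t2, hv _ t3, hmem.1, hmem.2.1, hmem.2.2] at h1
    simp only [if_true, mul_one] at h1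
    show d a * d b * d c = 1
    rw [← hd]
    exact mul_left_cancel₀ (sb_ne_zero T.2.2.2) (by rw [h1, mul_one])
  next => simp at he

/-- The torus data check: exponents along the list. -/
noncomputable def okItems : List ℕ → List (ℕ × ℕ) → Bool
  | _, [] => true
  | done, (r, a) :: rest =>
    Nat.blt r 72 && Nat.blt a 27 && !(Nat.beq (comp (code r a) (negR r)) 0) &&
      done.all (fun b => Nat.beq (comp (code r b) (negR r)) 0 && Nat.beq (comp (code (negR r) b) r) 0) &&
      Nat.beq (comp (code r lastA) (negR r)) (if comp (code r lastB) (negR r) = 0 then 0 else 1 + 2 * lastA) &&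
      Nat.beq (comp (code (negR r) lastA) r) (if comp (code (negR r) lastB) r = 0 then 0 else 1 + 2 * lastA) &&
      okItems (a :: done) rest

theorem okItems_ok : okItems [] torItems = true ∧ torItems.map Prod.snd = sixA ∧
    torRoot < 72 ∧ comp (code torRoot lastA) (negR torRoot) = 0 ∧ comp (code (negR torRoot) lastA) torRoot = 0 ∧
    comp (code torRoot lastB) (negR torRoot) = 0 ∧ comp (code (negR torRoot) lastB) torRoot ≠ 0 := by
  decide +kernel

theorem torus_step : ∀ (L : List (ℕ × ℕ)) (done : List ℕ), okItems done L = true →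
    ∀ (g : GL (Fin 27) F) (d : ℕ → F), DiagD g d → (∀ b ∈ done, d b = 1) → d lastA = d lastB →
    ∃ l ∈ rootGen F, ∃ d', DiagD (l * g) d' ∧ (∀ b ∈ L.map Prod.snd ++ done, d' b = 1) ∧ d' lastA = d' lastB := by
  intro L
  induction L with
  | nil => exact fun done _ g d hg hd h => ⟨1, one_mem _, d, by rwa [one_mul], by simpa using hd, h⟩
  | cons x L ih =>
    obtain ⟨r, a⟩ := x
    intro done hok g d hg hd hlast
    simp only [okItems, Bool.and_eq_true, List.all_eq_true, Bool.not_eq_true'] at hok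
    obtain ⟨⟨⟨⟨⟨⟨hr, ha⟩, hP⟩, hdone⟩, hl1⟩, hl2⟩, hrest⟩ := hok
    replace hr := Nat.blt_eq.mp hr
    replace ha := Nat.blt_eq.mp ha
    have hP' : comp (code r a) (negR r) ≠ 0 := fun e => by rw [e] at hP; simp at hP
    have hne : (d a)⁻¹ ≠ 0 := inv_ne_zero (hg.ne a ha)
    have hs1 : ∀ b ∈ a :: done, hv r b (d a)⁻¹ * d b = 1 := by
      intro b hb
      rcases List.mem_cons.mp hb with rfl | hb
      · rw [hv, if_pos hP', inv_mul_cancel₀ (hg.ne b ha)]
      · obtain ⟨e1, e2⟩ := hdone b hb
        rw [hv, if_neg (not_not.mpr (Nat.eq_of_beq_eq_true e1)), if_neg (not_not.mpr (Nat.eq_of_beq_eq_true e2)),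
          one_mul, hd b hb]
    have hs2 : hv r lastA (d a)⁻¹ * d lastA = hv r lastB (d a)⁻¹ * d lastB := by
      suffices hh : hv r lastA (d a)⁻¹ = hv r lastB (d a)⁻¹ by rw [hh, hlast]
      have e1 := Nat.eq_of_beq_eq_true hl1
      have e2 := Nat.eq_of_beq_eq_true hl2
      have i1 : comp (code r lastA) (negR r) = 0 ↔ comp (code r lastB) (negR r) = 0 := by
        rw [e1]; split_ifs with hh
        · exact iff_of_true rfl hh
        · exact iff_of_false (by omega) hh
      have i2 : comp (code (negR r) lastA) r = 0 ↔ comp (code (negR r) lastB) r = 0 := by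
        rw [e2]; split_ifs with hh
        · exact iff_of_true rfl hh
        · exact iff_of_false (by omega) hh
      simp only [hv, ne_eq, i1, i2]
    obtain ⟨l, hl, d', hd', h1, h2⟩ := ih (a :: done) hrest _ _ (diagD_hm hg hr hne) hs1 hs2
    refine ⟨l * hm r (d a)⁻¹, mul_mem hl (hm_mem _ _), d', by rwa [mul_assoc], fun b hb => h1 b ?_, h2⟩
    simp only [List.map_cons, List.cons_append, List.mem_cons, List.mem_append] at hb ⊢
    tauto

/-- Exponents along the propagation list. -/
noncomputable def propExp : List (ℕ × ℕ × ℕ) → List (ℕ × ℤ) → Option (List (ℕ × ℤ))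
  | [], known => some known
  | (a, b, c) :: rest, known =>
    match known.find? (fun e => e.1 == a), known.find? (fun e => e.1 == b) with
    | some ea, some eb => propExp rest ((c, -(ea.2) - eb.2) :: known)
    | _, _ => none

/-- The initial exponents. -/
def known0 : List (ℕ × ℤ) := (lastA, 1) :: (lastB, 1) :: sixA.map fun a => (a, 0)

theorem prop_ok : ∃ L, propExp propL known0 = some L ∧ (∀ w < 27, ∃ e ∈ L, e.1 = w) ∧
    ∃ e1 ∈ L, ∃ e2 ∈ L, ∃ e3 ∈ L, (e1.1, e2.1, e3.1) = closeT ∧
      (e1.2 + e2.2 + e3.2 = 1 ∨ e1.2 + e2.2 + e3.2 = -1) := by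
  refine ⟨(propExp propL known0).getD [], ?_, ?_, ?_⟩ <;> decide +kernel

theorem propExp_spec {g : GL (Fin 27) F} {d : ℕ → F} (hg : DiagD g d) {x : F} (hx : x ≠ 0) :
    ∀ (P : List (ℕ × ℕ × ℕ)) (K L : List (ℕ × ℤ)), P.all okTriple = true → propExp P K = some L →
      (∀ e ∈ K, d e.1 = x ^ e.2) → ∀ e ∈ L, d e.1 = x ^ e.2 := by
  intro P
  induction P with
  | nil => intro K L _ h hK; simp only [propExp, Option.some.injEq] at h; exact h ▸ hK
  | cons p P ih =>
    obtain ⟨a, b, c⟩ := p
    intro K L hall h hK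
    rw [List.all_cons, Bool.and_eq_true] at hall
    simp only [propExp] at h
    split at h
    next ea eb ha hb =>
      refine ih _ L hall.2 h fun e he => ?_
      rcases List.mem_cons.mp he with rfl | he
      · have h1 := hK ea (List.mem_of_find?_eq_some ha)
        have h2 := hK eb (List.mem_of_find?_eq_some hb)
        have e1 : ea.1 = a := by simpa using List.find?_some ha
        have e2 : eb.1 = b := by simpa using List.find?_some hb
        rw [e1] at h1
        rw [e2] at h2
        have h3 : d a * d b * d c = 1 := diag_triple hg hall.1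
        rw [h1, h2] at h3
        show d c = x ^ (-(ea.2) - eb.2)
        rw [eq_inv_of_mul_eq_one_right h3, zpow_sub₀ hx, zpow_neg, mul_inv, div_eq_mul_inv]
      · exact hK e he
    next => simp at h

/-- Every isometry is a product of root elements. -/
theorem stab_eq (hF : ∃ s : F, s ≠ 0 ∧ s ≠ 1) : stab F = rootGen F := by
  refine le_antisymm (fun g hg => ?_) rootGen_le_stab
  obtain ⟨l, hl, hdiag⟩ := exists_diag hF hg
  obtain ⟨hit, hmap, hr0, hA1, hA2, hB1, hB2⟩ := okItems_ok
  have hd0 := isDiag_diagD (mul_mem (rootGen_le_stab hl) hg) hdiag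
  set d0 := fun w => ent (l * g) w w with hd0'
  have hA : lastA < 27 := by decide
  have hB : lastB < 27 := by decide
  set t := d0 lastB / d0 lastA with ht
  have ht0 : t ≠ 0 := div_ne_zero (hd0.ne _ hB) (hd0.ne _ hA)
  have hd1 := diagD_hm hd0 hr0 ht0
  obtain ⟨l2, hl2, d2, hd2, hones, hlast⟩ := torus_step torItems [] hit _ _ hd1 (by simp) (by
    show hv torRoot lastA t * d0 lastA = hv torRoot lastB t * d0 lastB
    rw [hv, if_neg (not_not.mpr hA1), if_neg (not_not.mpr hA2), hv, if_neg (not_not.mpr hB1), if_pos hB2,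
      one_mul, ht, inv_div, div_mul_cancel₀ _ (hd0.ne _ hB)])
  obtain ⟨L, hL, hall, e1, m1, e2, m2, e3, m3, hclose, hsum⟩ := prop_ok
  have hx : d2 lastA ≠ 0 := hd2.ne _ hA
  have htri := triples_ok
  rw [List.all_cons, Bool.and_eq_true] at htri
  have hexp := propExp_spec hd2 hx propL known0 L htri.2 hL (by
    intro e he
    simp only [known0, List.mem_cons, List.mem_map] at he
    rcases he with rfl | rfl | ⟨a, ha, rfl⟩
    · rw [zpow_one]
    · rw [zpow_one, hlast]
    · rw [zpow_zero]
      exact hones a (by rw [hmap, List.append_nil]; exact ha))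
  have hx1 : d2 lastA = 1 := by
    have h := diag_triple hd2 htri.1
    rw [← hclose] at h
    simp only [hexp e1 m1, hexp e2 m2, hexp e3 m3, ← zpow_add₀ hx] at h
    rcases hsum with e | e <;> rw [e] at h
    · rwa [zpow_one] at h
    · rwa [zpow_neg_one, inv_eq_one] at h
  have hone : l2 * (hm torRoot t * (l * g)) = 1 := by
    apply Units.ext
    refine mat_ext_mulVec fun v w => ?_
    rw [← cw_val (_ *ᵥ v) w, hd2.act v w w.isLt, Units.val_one, Matrix.one_mulVec]
    obtain ⟨e, he, hew⟩ := hall w w.isLt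
    rw [← hew, hexp e he, hx1, one_zpow, one_mul, hew, cw_val]
  have e : g = (l2 * hm torRoot t * l)⁻¹ := by
    apply eq_inv_of_mul_eq_one_right
    rw [← hone]; group
  rw [e]
  exact inv_mem (mul_mem (mul_mem hl2 (hm_mem _ _)) hl)

end Cfsg.Agent.Chev.E6Cubic
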