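import Cfsg.Agent.Chev.E6Cubic.Rels
import Cfsg.Agent.Chev.E6Cubic.Torus
import Cfsg.Agent.S1054
import Cfsg.Agent.S1077
import Cfsg.Agent.KnownA.Cover.FiniteField

/-!
`E₆(F)` of the cubic form is the Chevalley group of type E₆.
-/

set_option autoImplicit false

universe u

namespace Cfsg.Agent.Chev.E6Cubic

open Cfsg.Lie
open scoped Matrix MatrixGroups

variable {F : Type u} [Field F]

/-- The numbering of the 27 coordinates. -/
def eI : I27 ≃ Fin 27 :=
  ((Equiv.refl (Fin 3)).prodCongr finProdFinEquiv).trans finProdFinEquiv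

theorem T27_eq (v : I27 → F) : T27 (v ∘ eI.symm) = cubicT v := by
  have h : ∀ (k i j : Fin 3) (n : ℕ), n = 9 * (k : ℕ) + 3 * (i : ℕ) + (j : ℕ) →
      cw (v ∘ eI.symm) n = v (k, i, j) := by
    intro k i j n hn
    have hlt : n < 27 := by omega
    rw [cw, dif_pos hlt, Function.comp]
    congr 1
    rw [Equiv.symm_apply_eq]
    apply Fin.ext
    simp [eI, finProdFinEquiv, hn]
    ring
  have e : ∀ k i j : Fin 3, cw (v ∘ eI.symm) (9 * (k : ℕ) + 3 * (i : ℕ) + (j : ℕ)) = v (k, i, j) :=
    fun k i j => h k i j _ rfl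
  have e000 := e 0 0 0; have e001 := e 0 0 1; have e002 := e 0 0 2
  have e010 := e 0 1 0; have e011 := e 0 1 1; have e012 := e 0 1 2
  have e020 := e 0 2 0; have e021 := e 0 2 1; have e022 := e 0 2 2
  have e100 := e 1 0 0; have e101 := e 1 0 1; have e102 := e 1 0 2
  have e110 := e 1 1 0; have e111 := e 1 1 1; have e112 := e 1 1 2
  have e120 := e 1 2 0; have e121 := e 1 2 1; have e122 := e 1 2 2
  have e200 := e 2 0 0; have e201 := e 2 0 1; have e202 := e 2 0 2
  have e210 := e 2 1 0; have e211 := e 2 1 1; have e212 := e 2 1 2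
  have e220 := e 2 2 0; have e221 := e 2 2 1; have e222 := e 2 2 2
  simp only [Fin.val_zero, Fin.val_one, Fin.val_two, Nat.reduceMul, Nat.reduceAdd, mul_zero, mul_one, zero_add,
    add_zero] at e000 e001 e002 e010 e011 e012 e020 e021 e022 e100 e101 e102 e110 e111 e112 e120 e121 e122 e200 e201 e202 e210 e211 e212 e220 e221 e222
  simp only [T27, triL, List.map_cons, List.map_nil, List.sum_cons, List.sum_nil, term, sb, cond_true, cond_false,
    e000, e001, e002, e010, e011, e012, e020, e021, e022, e100, e101, e102, e110, e111, e112, e120, e121, e122,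
    e200, e201, e202, e210, e211, e212, e220, e221, e222, cubicT, mat3, Matrix.det_fin_three, Matrix.trace,
    Matrix.diag, Matrix.mul_apply, Fin.sum_univ_three, Matrix.of_apply]
  ring

/-- The change of coordinates on the matrix groups. -/
noncomputable def reI (F : Type u) [Field F] : GL (Fin 27) F ≃* GL I27 F :=
  Units.mapEquiv (Matrix.reindexAlgEquiv F F eI.symm).toMulEquiv

theorem reI_mulVec (g : GL (Fin 27) F) (v : I27 → F) :
    (reI F g : Matrix I27 I27 F) *ᵥ v = ((g : Matrix (Fin 27) (Fin 27) F) *ᵥ (v ∘ eI.symm)) ∘ eI := by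
  funext x
  show ∑ y, (g : Matrix (Fin 27) (Fin 27) F) (eI x) (eI y) * v y = _
  rw [Function.comp, Matrix.mulVec, dotProduct, ← Equiv.sum_comp eI]
  simp

theorem reI_mem_iff (g : GL (Fin 27) F) : reI F g ∈ E6univ F ↔ g ∈ stab F := by
  have key : ∀ v : I27 → F, cubicT ((reI F g : Matrix I27 I27 F) *ᵥ v) =
      T27 ((g : Matrix (Fin 27) (Fin 27) F) *ᵥ (v ∘ eI.symm)) := by
    intro v
    rw [← T27_eq, reI_mulVec]
    congr 1
    funext w
    simp
  constructor
  · intro h w
    have := h (w ∘ eI)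
    change cubicT ((reI F g : Matrix I27 I27 F) *ᵥ (w ∘ eI)) = _ at this
    rw [key, ← T27_eq] at this
    have e : (w ∘ eI) ∘ eI.symm = w := by funext x; simp
    rw [e] at this
    exact this
  · intro h v
    show cubicT ((reI F g : Matrix I27 I27 F) *ᵥ v) = cubicT v
    rw [key, stab_T h, T27_eq]

theorem rep_mem_stab (x : chevE6.SteinbergCover F) : rep F x ∈ stab F := by
  have hx : x ∈ Subgroup.closure (Set.range (PresentedGroup.of (rels := chevE6.steinbergRelsAB F))) := by
    rw [PresentedGroup.closure_range_of]; exact Subgroup.mem_top x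
  induction hx using Subgroup.closure_induction with
  | mem y hy =>
    obtain ⟨p, rfl⟩ := hy
    rw [rep, PresentedGroup.toGroup.of]
    exact xm_mem_stab _ _
  | one => rw [map_one]; exact one_mem _
  | mul a b _ _ ha hb => rw [map_mul]; exact mul_mem ha hb
  | inv a _ ha => rw [map_inv]; exact inv_mem ha

/-- The main isomorphism. -/
theorem nonempty_iso [Fintype F] (hF : 3 ≤ Fintype.card F) :
    Nonempty (E6 F ≃* ↥(chevE6.group F)) := by
  classical
  have hs : ∃ s : F, s ≠ 0 ∧ s ≠ 1 := by
    by_contra h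
    push Not at h
    have hsub : (Finset.univ : Finset F) ⊆ {0, 1} := fun s _ => by
      by_cases h0 : s = 0
      · simp [h0]
      · simp [h s h0]
    have := (Finset.card_le_card hsub).trans Finset.card_le_two
    rw [Finset.card_univ] at this
    omega
  have hD7 : chevE6 ∈ [chevG2, chevB2, chevD4, chevF4, chevE6, chevE7, chevE8] := by simp
  obtain ⟨M, hM⟩ := exists_cox hD7
  obtain ⟨e0, he0⟩ := KnownA.Cover.cover_equiv (K := F) certE6.{u} (KnownA.Cover.corner_of_mem hD7) hM
  obtain ⟨θ, hθs, hθk, -⟩ := S1077.result (K := F) chevE6 hD7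
  obtain ⟨hsimple, -⟩ := S1054.result (F := F) chevE6 (by simp)
  -- the representation into the isometry group
  let ψ : chevE6.SteinbergGroup F →* ↥(E6univ F) :=
    (((reI F).toMonoidHom.comp (rep F)).comp e0.symm.toMonoidHom).codRestrict _
      fun x => (reI_mem_iff _).mpr (rep_mem_stab _)
  have hψs : Function.Surjective ψ := by
    intro y
    have hy : (reI F).symm (y : GL I27 F) ∈ rootGen F := by
      rw [← stab_eq hs, ← reI_mem_iff, MulEquiv.apply_symm_apply]; exact y.2
    have hle : rootGen F ≤ (rep F).range := by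
      refine (Subgroup.closure_le _).mpr ?_
      rintro _ ⟨r, t, rfl⟩
      exact ⟨_, rep_scGen r t⟩
    obtain ⟨x, hx⟩ := hle hy
    refine ⟨e0 x, Subtype.ext ?_⟩
    show reI F (rep F (e0.symm (e0 x))) = y
    rw [MulEquiv.symm_apply_apply, hx, MulEquiv.apply_symm_apply]
  let π : chevE6.SteinbergGroup F →* E6 F := (QuotientGroup.mk' _).comp ψ
  have hπs : Function.Surjective π := (QuotientGroup.mk'_surjective _).comp hψs
  have hle : θ.ker ≤ π.ker := by
    intro z hz
    rw [hθk] at hz
    rw [MonoidHom.mem_ker]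
    show QuotientGroup.mk' _ (ψ z) = 1
    rw [QuotientGroup.mk'_apply, QuotientGroup.eq_one_iff, Subgroup.mem_center_iff]
    intro g
    obtain ⟨g, rfl⟩ := hψs g
    rw [← map_mul, ← map_mul, Subgroup.mem_center_iff.mp hz g]
  have hnt : π.ker ≠ ⊤ := by
    intro e
    have hall : ∀ y : ↥(E6univ F), y ∈ Subgroup.center ↥(E6univ F) := by
      intro y
      obtain ⟨x, rfl⟩ := hψs y
      have hx : x ∈ π.ker := e ▸ Subgroup.mem_top x
      rw [MonoidHom.mem_ker] at hx
      exact (QuotientGroup.eq_one_iff _).mp hx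
    have hc : xm F 56 1 * xm F 42 1 = xm F 42 1 * xm F 56 1 := by
      have h := congrArg Subtype.val (Subgroup.mem_center_iff.mp
        (hall ⟨reI F (xm F 42 1), (reI_mem_iff _).mpr (xm_mem_stab _ _)⟩)
        ⟨reI F (xm F 56 1), (reI_mem_iff _).mpr (xm_mem_stab _ _)⟩)
      simp only [Subgroup.coe_mul, ← map_mul] at h
      exact (reI F).injective h
    have hw : ∃ k c : Fin 27, code 56 k ≠ 0 ∧ src (code 56 k) ≠ (c : ℕ) ∧
        code 42 k = 0 ∧ code 42 (src (code 56 k)) ≠ 0 ∧ src (code 42 (src (code 56 k))) = (c : ℕ) := by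
      decide +kernel
    obtain ⟨k, c, h1, h2, h3, h4, h5⟩ := hw
    have hk := congrArg (fun g : GL (Fin 27) F => cw ((g : Matrix (Fin 27) (Fin 27) F) *ᵥ bv F c) k) hc
    have hlt := src_lt (r := 56) (by norm_num) k.isLt
    simp only [Units.val_mul, ← Matrix.mulVec_mulVec, xm_mulVec (r := 56) (by norm_num) _ _ k.isLt,
      xm_mulVec (r := 42) (by norm_num) _ _ k.isLt, ev, if_neg h1, if_pos h3, one_mul, mul_zero, add_zero,
      xm_mulVec (r := 42) (by norm_num) _ _ hlt, if_neg h4, cw_bv _ hlt, if_neg h2, h5,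
      cw_bv _ c.isLt, if_pos, mul_one, zero_add, mul_zero, add_eq_left] at hk
    exact mul_ne_zero (sc_ne_zero _) (sc_ne_zero _) hk
  have hker : π.ker = θ.ker := by
    refine le_antisymm ?_ hle
    rcases hsimple.eq_bot_or_eq_top_of_normal (π.ker.map θ) (Subgroup.Normal.map inferInstance θ hθs) with h | h
    · exact (Subgroup.map_eq_bot_iff _).mp h
    · exfalso
      apply hnt
      have := congrArg (Subgroup.comap θ) h
      rwa [Subgroup.comap_map_eq, Subgroup.comap_top, sup_eq_left.mpr hle] at this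
  exact ⟨(((QuotientGroup.quotientMulEquivOfEq hker.symm).trans
    (QuotientGroup.quotientKerEquivOfSurjective π hπs)).symm.trans
      (QuotientGroup.quotientKerEquivOfSurjective θ hθs))⟩

end Cfsg.Agent.Chev.E6Cubic
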