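import Cfsg.Agent.Chev.E6Cubic.Base
import Cfsg.Agent.Chev.VerifyE6
import Cfsg.Agent.Chev.Certs
import Cfsg.Prelude.Def_SteinbergCover

/-!
The root matrices satisfy Steinberg's relations of type E₆.
-/

set_option autoImplicit false

universe u

namespace Cfsg.Agent.Chev.E6Cubic

open Cfsg.Lie
open scoped Matrix MatrixGroups

variable {F : Type u} [Field F]

/-- `SR = RS` on a row. -/
noncomputable def eqRow (r s w : ℕ) : Bool := Nat.beq (comp (code s w) r) (comp (code r w) s)

/-- The commutator identity `SR - RS = -m U` on a row. -/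
noncomputable def commRow (r s u : ℕ) (m : ℤ) (w : ℕ) : Bool :=
  let a := comp (code s w) r
  let b := comp (code r w) s
  let c := code u w
  Nat.beq (comp (code r w) u) 0 && Nat.beq (comp (code s w) u) 0 &&
    ((Nat.beq a b && Nat.beq c 0) ||
      (Nat.beq b 0 && !(Nat.beq a 0) && !(Nat.beq c 0) && Nat.beq (src a) (src c) &&
        decide (sgn (a - 1) = -m * sgn (c - 1))) ||
      (Nat.beq a 0 && !(Nat.beq b 0) && !(Nat.beq c 0) && Nat.beq (src b) (src c) &&
        decide (sgn (b - 1) = m * sgn (c - 1))))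

/-- The pair `(r, s)` is as in the tables. -/
noncomputable def okPair (r s : ℕ) : Bool :=
  match decode 3 (tabE6.slot r s) with
  | [] => Nat.beq s (slice tabE6.negP 8 r) || allBelow (eqRow r s) 27
  | [(u, m)] => Nat.blt u 72 && allBelow (commRow r s u m) 27
  | _ => false

theorem okPair_ok : allBelow (fun r => allBelow (okPair r) 72) 72 = true := by decide +kernel

theorem okPair_spec {r s : ℕ} (hr : r < 72) (hs : s < 72) : okPair r s = true :=
  (allBelow_iff _ _).mp ((allBelow_iff _ _).mp okPair_ok r hr) s hs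

theorem chain_decode {r s : ℕ} (hr : r < 72) (hs : s < 72) :
    chevE6.chainEntry r s = decode 3 (tabE6.slot r s) :=
  allOKE6.basic.chainEntry_eq hr hs

theorem chain_short {r s : ℕ} (hr : r < 72) (hs : s < 72) :
    chevE6.chainEntry r s = [] ∨ ∃ u m, chevE6.chainEntry r s = [(u, m)] := by
  have h := okPair_spec hr hs
  unfold okPair at h
  rw [chain_decode hr hs]
  split at h
  next e => exact Or.inl e
  next u m e => exact Or.inr ⟨u, m, e⟩
  next => simp at h

theorem commTerms_short {r s : ℕ} (hr : r < 72) (hs : s < 72) :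
    chevE6.commTerms r s = (chevE6.chainEntry r s).map fun e => (e.1, e.2, 1, 1) := by
  have hlen : ∀ {a b : ℕ}, a < 72 → b < 72 → ∀ k, 2 ≤ k → chevE6.chainRoot a b k = none := by
    intro a b ha hb k hk
    have : k - 1 ≠ 0 := by omega
    rcases chain_short ha hb with h | ⟨u, m, h⟩ <;> simp [ChevalleyDatum.chainRoot, h]
    omega
  have e2 := hlen hr hs 2 le_rfl
  have e2' := hlen hs hr 2 le_rfl
  have e3 := hlen hr hs 3 (by norm_num)
  have e3' := hlen hs hr 3 (by norm_num)
  rcases chain_short hr hs with h | ⟨u, m, h⟩ <;>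
    simp [ChevalleyDatum.commTerms, e2, e2', e3, e3'] <;>
    simp [ChevalleyDatum.chainRoot, ChevalleyDatum.chainM, h]

theorem sc_of_sgn {a c : ℕ} {k : ℤ} (h : sgn (a - 1) = k * sgn (c - 1)) : (sc a : F) = (k : F) * sc c := by
  unfold sc; rw [h, Int.cast_mul]

theorem rm_rel {r s : ℕ} (hr : r < 72) (hs : s < 72) (hneg : s ≠ slice tabE6.negP 8 r) :
    (decode 3 (tabE6.slot r s) = [] ∧ rm F s * rm F r = rm F r * rm F s) ∨
    ∃ (u : ℕ) (m : ℤ), u < 72 ∧ decode 3 (tabE6.slot r s) = [(u, m)] ∧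
      rm F r * rm F u = 0 ∧ rm F s * rm F u = 0 ∧
      rm F s * rm F r - rm F r * rm F s = (-(m : F)) • rm F u := by
  have h := okPair_spec hr hs
  unfold okPair at h
  split at h
  next e =>
    simp only [Bool.or_eq_true, allBelow_iff] at h
    replace h := h.resolve_left fun e' => hneg (Nat.eq_of_beq_eq_true e')
    refine Or.inl ⟨e, mat_ext_mulVec fun v w => ?_⟩
    rw [rm_mul_mulVec hs, rm_mul_mulVec hr, Nat.eq_of_beq_eq_true (h w w.isLt)]
  next u m e =>
    simp only [Bool.and_eq_true, allBelow_iff, commRow] at h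
    refine Or.inr ⟨u, m, Nat.blt_eq.mp h.1, e, ?_, ?_, ?_⟩
    · refine mat_ext_mulVec fun v w => ?_
      rw [rm_mul_mulVec hr, Nat.eq_of_beq_eq_true (h.2 w w.isLt).1.1]; simp [ev]
    · refine mat_ext_mulVec fun v w => ?_
      rw [rm_mul_mulVec hs, Nat.eq_of_beq_eq_true (h.2 w w.isLt).1.2]; simp [ev]
    · refine mat_ext_mulVec fun v w => ?_
      rw [Matrix.sub_mulVec, Pi.sub_apply, rm_mul_mulVec hs, rm_mul_mulVec hr, Matrix.smul_mulVec,
        Pi.smul_apply, smul_eq_mul, rm_mulVec]
      have hw := (h.2 w w.isLt).2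
      simp only [Bool.or_eq_true, Bool.and_eq_true, decide_eq_true_eq, Bool.not_eq_true'] at hw
      have nz : ∀ {a : ℕ}, Nat.beq a 0 = false → a ≠ 0 := fun {a} h e => by rw [e] at h; simp at h
      rcases hw with (⟨hab, hc⟩ | ⟨⟨⟨⟨hb, ha⟩, hc⟩, hsrc⟩, hsg⟩) | ⟨⟨⟨⟨ha, hb⟩, hc⟩, hsrc⟩, hsg⟩
      · rw [Nat.eq_of_beq_eq_true hab, Nat.eq_of_beq_eq_true hc, sub_self]; simp [ev]
      · rw [Nat.eq_of_beq_eq_true hb, ev, ev, ev, if_neg (nz ha), if_pos rfl, if_neg (nz hc),
          Nat.eq_of_beq_eq_true hsrc, sc_of_sgn hsg]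
        push_cast; ring
      · rw [Nat.eq_of_beq_eq_true ha, ev, ev, ev, if_neg (nz hb), if_pos rfl, if_neg (nz hc),
          Nat.eq_of_beq_eq_true hsrc, sc_of_sgn hsg]
        ring
  next => simp at h

/-- The word in root elements. -/
noncomputable def wordM (L : List (ℕ × F)) : GL (Fin 27) F := (L.map fun p => xm F p.1 p.2).prod

theorem neg_tab {r : ℕ} (hr : r < 72) : chevE6.neg r = slice tabE6.negP 8 r :=
  allOKE6.basic.neg_eq hr

theorem xm_comm {r s : ℕ} (hr : r < 72) (hs : s < 72) (hneg : s ≠ chevE6.neg r) (t v : F) :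
    xm F s v * xm F r t = xm F r t * xm F s v * wordM (chevE6.commWord F r s t v) := by
  rw [neg_tab hr] at hneg
  rw [ChevalleyDatum.commWord, commTerms_short hr hs, chain_decode hr hs]
  apply Units.ext
  rcases rm_rel (F := F) hr hs hneg with ⟨e, hc⟩ | ⟨u, m, hu, e, hRU, hSU, hd⟩
  · simp [e, wordM, coe_xm hr, coe_xm hs, mul_add, add_mul, hc, smul_smul, mul_comm v t]
    abel
  · simp only [e, wordM, List.map_cons, List.map_nil, List.prod_cons, List.prod_nil, mul_one, Units.val_mul,
      coe_xm hr, coe_xm hs, coe_xm hu, pow_one]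
    rw [sub_eq_iff_eq_add] at hd
    simp only [mul_add, add_mul, one_mul, mul_one, smul_mul_assoc, mul_smul_comm, smul_smul, mul_assoc, hRU, hSU,
      hd, smul_add, smul_zero, mul_zero, add_zero]
    match_scalars <;> ring

theorem wordM_map {G : Type*} [Group G] (φ : FreeGroup (Fin chevE6.nroots × F) →* G) (L : List (ℕ × F)) :
    φ (chevE6.stWord L) = (L.map fun p => φ (chevE6.stX p.1 p.2)).prod := by
  rw [ChevalleyDatum.stWord, map_list_prod, List.map_map]; rfl

theorem lift_stX (r : ℕ) (t : F) :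
    FreeGroup.lift (fun p : Fin chevE6.nroots × F => xm F p.1 p.2) (chevE6.stX r t) = xm F r t := by
  unfold ChevalleyDatum.stX
  split
  · simp
  next h => rw [map_one, xm, dif_neg (fun e => h (show r < 72 from e))]

theorem rels_ok : ∀ g ∈ chevE6.steinbergRelsAB F,
    FreeGroup.lift (fun p : Fin chevE6.nroots × F => xm F p.1 p.2) g = 1 := by
  rintro g (⟨r, a, b, -, rfl⟩ | ⟨r, s, t, v, hr, hs, -, hn, rfl⟩)
  · rw [map_mul, map_mul, map_inv, lift_stX, lift_stX, lift_stX, xm_add, mul_inv_cancel]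
  · rw [map_mul, map_mul, map_mul, map_mul, map_inv, map_inv, map_inv, wordM_map, lift_stX, lift_stX]
    have := xm_comm (F := F) hr hs hn t v
    simp only [wordM] at this
    simp only [lift_stX]
    rw [mul_inv_eq_one, mul_assoc, this]
    group

/-- The 27-dimensional representation of the presented group. -/
noncomputable def rep (F : Type u) [Field F] : chevE6.SteinbergCover F →* GL (Fin 27) F :=
  PresentedGroup.toGroup rels_ok

theorem rep_scGen (r : ℕ) (t : F) : rep F (chevE6.scGen F r t) = xm F r t := lift_stX r t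

end Cfsg.Agent.Chev.E6Cubic
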