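import Cfsg.Agent.Chev.E6Cubic.Base
import Cfsg.Agent.Chev.E6Cubic.Nodes

/-!
Soundness of the script: every isometry becomes diagonal after multiplication by root elements.
-/

set_option autoImplicit false

universe u

namespace Cfsg.Agent.Chev.E6Cubic

open scoped Matrix MatrixGroups

/-! ### Bit sets of positions -/

/-- Bit of position `(k, c)`. -/
def has (Z k c : ℕ) : Bool := Nat.testBit Z (k * 27 + c)

/-- Row `k` of a set of positions. -/
def rowB (Z k : ℕ) : ℕ := slice Z 27 k

/-- The singleton row. -/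
def one' (k c k' : ℕ) : ℕ := if Nat.beq k' k then Nat.shiftLeft 1 c else 0

theorem testBit_rowB (Z k c : ℕ) (hc : c < 27) : Nat.testBit (rowB Z k) c = has Z k c := by
  show Nat.testBit ((Z >>> (27 * k)) % 2 ^ 27) c = _
  rw [Nat.testBit_mod_two_pow, Nat.testBit_shiftRight, decide_eq_true hc, Bool.true_and, has,
    Nat.mul_comm, Nat.add_comm]

/-- `A ⊆ B` in every row, for a row function `B`. -/
noncomputable def subRows (A : ℕ) (B : ℕ → ℕ) : Bool :=
  allBelow (fun k => Nat.beq (rowB A k &&& B k) (rowB A k)) 27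

theorem subRows_spec {A : ℕ} {B : ℕ → ℕ} (h : subRows A B = true) {k c : ℕ} (hk : k < 27) (hc : c < 27)
    (ha : has A k c = true) : Nat.testBit (B k) c = true := by
  have := Nat.eq_of_beq_eq_true ((allBelow_iff _ _).mp h k hk)
  rw [← testBit_rowB A k c hc, ← this, Nat.testBit_and, Bool.and_eq_true] at ha
  exact ha.2

theorem testBit_one' {k0 c0 k c : ℕ} (h : Nat.testBit (one' k0 c0 k) c = true) : k = k0 ∧ c = c0 := by
  unfold one' at h
  split at h
  next hk =>
    refine ⟨Nat.eq_of_beq_eq_true hk, ?_⟩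
    have : Nat.testBit (1 <<< c0) c = true := h
    rw [Nat.one_shiftLeft, Nat.testBit_two_pow, decide_eq_true_eq] at this
    exact this.symm
  next => simp at h

/-! ### States -/

variable {F : Type u} [Field F]

/-- An entry of a matrix, zero out of range. -/
def ent (g : GL (Fin 27) F) (k c : ℕ) : F := cw ((g : Matrix (Fin 27) (Fin 27) F) *ᵥ bv F c) k

/-- `g` has the zeros `Z` and the non-zeros `N`. -/
structure Sat (Z N : ℕ) (g : GL (Fin 27) F) : Prop where
  mem : g ∈ stab F
  zero : ∀ k < 27, ∀ c < 27, has Z k c = true → ent g k c = 0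
  ne : ∀ k < 27, ∀ c < 27, has N k c = true → ent g k c ≠ 0

/-- The group of root elements. -/
noncomputable def rootGen (F : Type u) [Field F] : Subgroup (GL (Fin 27) F) :=
  Subgroup.closure {g | ∃ (r : ℕ) (t : F), g = xm F r t}

theorem xm_mem_rootGen (r : ℕ) (t : F) : xm F r t ∈ rootGen F := Subgroup.subset_closure ⟨r, t, rfl⟩

theorem rootGen_le_stab : rootGen F ≤ stab F := by
  refine (Subgroup.closure_le _).mpr ?_
  rintro _ ⟨r, t, rfl⟩
  exact xm_mem_stab r t

/-- Diagonal matrices. -/
def IsDiag (g : GL (Fin 27) F) : Prop := ∀ k < 27, ∀ c < 27, k ≠ c → ent g k c = 0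

/-- The claim of the script at a state. -/
def Reach (g : GL (Fin 27) F) : Prop := ∃ l ∈ rootGen F, IsDiag (l * g)

theorem reach_mul {r : ℕ} {t : F} {g : GL (Fin 27) F} (h : Reach (xm F r t * g)) : Reach g := by
  obtain ⟨l, hl, hd⟩ := h
  exact ⟨l * xm F r t, mul_mem hl (xm_mem_rootGen r t), by rw [mul_assoc]; exact hd⟩

theorem ent_mul_xm {r : ℕ} (hr : r < 72) (t : F) (g : GL (Fin 27) F) {k : ℕ} (hk : k < 27) (c : ℕ) :
    ent (xm F r t * g) k c = ent g k c +
      t * (if code r k = 0 then 0 else sc (code r k) * ent g (src (code r k)) c) := by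
  rw [ent, Units.val_mul, ← Matrix.mulVec_mulVec, xm_mulVec hr t _ hk]
  rfl

/-- Rows surviving a root element. -/
noncomputable def keepRow (r Z A k : ℕ) : ℕ :=
  if Nat.beq (code r k) 0 then rowB A k else rowB A k &&& rowB Z (src (code r k))

theorem ent_keep {r : ℕ} (hr : r < 72) (t : F) {g : GL (Fin 27) F} {Z N : ℕ} (h : Sat Z N g) (A : ℕ)
    {k c : ℕ} (hk : k < 27) (hc : c < 27) (hb : Nat.testBit (keepRow r Z A k) c = true) :
    has A k c = true ∧ ent (xm F r t * g) k c = ent g k c := by
  rw [ent_mul_xm hr t g hk c]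
  unfold keepRow at hb
  split at hb
  next e =>
    rw [if_pos (Nat.eq_of_beq_eq_true e), mul_zero, add_zero]
    exact ⟨testBit_rowB A k c hc ▸ hb, rfl⟩
  next e =>
    rw [Nat.testBit_and, Bool.and_eq_true, testBit_rowB A k c hc, testBit_rowB Z _ c hc] at hb
    refine ⟨hb.1, ?_⟩
    rw [h.zero _ (src_lt hr hk) c hc hb.2, mul_zero]
    simp

/-! ### Polarised identities on basis vectors -/

/-- No monomial contains both weights. -/
def noTri (x y : ℕ) : Bool :=
  triL.all fun T => !((T.1 == x || T.2.1 == x || T.2.2.1 == x) && (T.1 == y || T.2.1 == y || T.2.2.1 == y))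

theorem B27_bv_zero {x y : ℕ} (h : noTri x y = true) (z : Fin 27 → F) : B27 (bv F x) (bv F y) z = 0 := by
  refine List.sum_eq_zero fun a ha => ?_
  obtain ⟨T, hT, rfl⟩ := List.mem_map.mp ha
  simp only [noTri, List.all_eq_true, Bool.not_eq_true', Bool.and_eq_false_iff, Bool.or_eq_false_iff,
    beq_eq_false_iff_ne] at h
  obtain ⟨h1, h2, h3, -, -, -⟩ := triL_ok T hT
  rcases h T hT with ⟨⟨e1, e2⟩, e3⟩ | ⟨⟨e1, e2⟩, e3⟩ <;>
    simp [termB, cw_bv _ h1, cw_bv _ h2, cw_bv _ h3, e1, e2, e3]

/-- The two partners of `k` in a monomial. -/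
def others (k : ℕ) (T : ℕ × ℕ × ℕ × Bool) : Option (ℕ × ℕ × Bool) :=
  if T.1 == k then some (T.2.1, T.2.2.1, T.2.2.2)
  else if T.2.1 == k then some (T.1, T.2.2.1, T.2.2.2)
  else if T.2.2.1 == k then some (T.1, T.2.1, T.2.2.2)
  else none

/-- Ordered products for the pair of columns `x ≠ y`. -/
def prodB (k : ℕ) : List (ℕ × ℕ × Bool) :=
  (triL.filterMap (others k)).flatMap fun e => [e, (e.2.1, e.1, e.2.2)]

/-- Products for one column. -/
def prodQ (k : ℕ) : List (ℕ × ℕ × Bool) := triL.filterMap (others k)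

/-- Value of a product. -/
def pval (x y : Fin 27 → F) (e : ℕ × ℕ × Bool) : F := sb e.2.2 * (cw x e.1 * cw y e.2.1)

theorem B27_third (x y : Fin 27 → F) {k : ℕ} (hk : k < 27) :
    B27 x y (bv F k) = ((prodB k).map (pval x y)).sum := by
  unfold B27 prodB
  have h : ∀ T ∈ triL, T.1 < 27 ∧ T.2.1 < 27 ∧ T.2.2.1 < 27 ∧
      T.1 ≠ T.2.1 ∧ T.1 ≠ T.2.2.1 ∧ T.2.1 ≠ T.2.2.1 := triL_ok
  generalize triL = L at h
  induction L with
  | nil => simp
  | cons T L ih =>
    obtain ⟨h1, h2, h3, n1, n2, n3⟩ := h T List.mem_cons_self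
    rw [List.map_cons, List.sum_cons, ih fun S hS => h S (List.mem_cons_of_mem _ hS)]
    by_cases e1 : T.1 = k
    · subst e1
      simp [others, termB, pval, cw_bv _ h1, cw_bv _ h2, cw_bv _ h3, Ne.symm n1, Ne.symm n2, n1, n2]
      ring
    · by_cases e2 : T.2.1 = k
      · subst e2
        simp [others, termB, pval, cw_bv _ h1, cw_bv _ h2, cw_bv _ h3, n1, Ne.symm n3, n3]
        ring
      · by_cases e3 : T.2.2.1 = k
        · subst e3
          simp [others, termB, pval, cw_bv _ h1, cw_bv _ h2, cw_bv _ h3, n2, n3]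
          ring
        · simp [others, termB, cw_bv _ h1, cw_bv _ h2, cw_bv _ h3, e1, e2, e3]

theorem Q27_third (x : Fin 27 → F) {k : ℕ} (hk : k < 27) :
    Q27 x (bv F k) = ((prodQ k).map (pval x x)).sum := by
  unfold Q27 prodQ
  have h : ∀ T ∈ triL, T.1 < 27 ∧ T.2.1 < 27 ∧ T.2.2.1 < 27 ∧
      T.1 ≠ T.2.1 ∧ T.1 ≠ T.2.2.1 ∧ T.2.1 ≠ T.2.2.1 := triL_ok
  generalize triL = L at h
  induction L with
  | nil => simp
  | cons T L ih =>
    obtain ⟨h1, h2, h3, n1, n2, n3⟩ := h T List.mem_cons_self
    rw [List.map_cons, List.sum_cons, ih fun S hS => h S (List.mem_cons_of_mem _ hS)]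
    by_cases e1 : T.1 = k
    · subst e1
      simp [others, termQ, pval, cw_bv _ h1, cw_bv _ h2, cw_bv _ h3, Ne.symm n1, Ne.symm n2, n1, n2]
    · by_cases e2 : T.2.1 = k
      · subst e2
        simp [others, termQ, pval, cw_bv _ h1, cw_bv _ h2, cw_bv _ h3, n1, Ne.symm n3, n3]
      · by_cases e3 : T.2.2.1 = k
        · subst e3
          simp [others, termQ, pval, cw_bv _ h1, cw_bv _ h2, cw_bv _ h3, n2, n3]
        · simp [others, termQ, cw_bv _ h1, cw_bv _ h2, cw_bv _ h3, e1, e2, e3]

theorem sum_one_alive {α : Type} (f : α → F) (p : α → Bool) {L : List α} {a : α}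
    (hdead : ∀ e ∈ L, p e = false → f e = 0) (h : L.filter p = [a]) : (L.map f).sum = f a := by
  have key : ∀ M : List α, (∀ e ∈ M, p e = false → f e = 0) → (M.map f).sum = ((M.filter p).map f).sum := by
    intro M
    induction M with
    | nil => simp
    | cons b M ih =>
      intro hM
      have := ih fun e he => hM e (List.mem_cons_of_mem _ he)
      cases hb : p b
      · simp [hb, this, hM b List.mem_cons_self hb]
      · simp [hb, this]
  rw [key L hdead, h]; simp

/-! ### The checker -/

/-- Lookup of a node. -/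
def nd (i : ℕ) : Node := (chunks.getD (i / 32) []).getD (i % 32) ⟨0, 0, .goto i⟩

/-- `Z` and `N` of the successor follow from row sets. -/
noncomputable def succOK (i : ℕ) (BZ BN : ℕ → ℕ) : Bool := subRows (nd i).Z BZ && subRows (nd i).N BN

/-- A product is alive. -/
def alive (Z x y : ℕ) (e : ℕ × ℕ × Bool) : Bool := !(has Z e.1 x || has Z e.2.1 y)

/-- Check of a single node. -/
noncomputable def okNode (me : ℕ) (n : Node) : Bool :=
  match n.rule with
  | .goal => allBelow (fun k => allBelow (fun c => Nat.beq k c || has n.Z k c) 27) 27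
  | .goto i => Nat.blt i me && succOK i (rowB n.Z) (rowB n.N)
  | .contra C S => Nat.blt S.length C.length && decide C.Nodup && C.all (fun c => Nat.blt c 27) &&
      C.all (fun c => allBelow (fun k => S.contains k || has n.Z k c) 27)
  | .split k c i j => Nat.blt i me && Nat.blt j me && Nat.blt k 27 && Nat.blt c 27 &&
      succOK i (fun k' => rowB n.Z k' ||| one' k c k') (rowB n.N) &&
      succOK j (rowB n.Z) (fun k' => rowB n.N k' ||| one' k c k')
  | .ded x y k p q i => Nat.blt i me && Nat.blt x 27 && Nat.blt y 27 && Nat.blt k 27 &&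
      succOK i (fun k' => rowB n.Z k' ||| one' p q k') (rowB n.N) &&
      (Nat.beq x y || noTri x y) &&
      (match ((if Nat.beq x y then prodQ k else prodB k).filter (alive n.Z x y)) with
       | [e] => Nat.blt e.1 27 && Nat.blt e.2.1 27 &&
          ((Nat.beq p e.1 && Nat.beq q x && has n.N e.2.1 y) || (Nat.beq p e.2.1 && Nat.beq q y && has n.N e.1 x))
       | _ => false)
  | .clear r k c i => Nat.blt i me && Nat.blt r 72 && Nat.blt k 27 && Nat.blt c 27 &&
      !(Nat.beq (code r k) 0) && has n.N (src (code r k)) c &&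
      succOK i (fun k' => keepRow r n.Z n.Z k' ||| one' k c k') (keepRow r n.Z n.N)
  | .move r k c i => Nat.blt i me && Nat.blt r 72 && Nat.blt k 27 && Nat.blt c 27 &&
      !(Nat.beq (code r k) 0) && has n.Z k c && has n.N (src (code r k)) c &&
      succOK i (keepRow r n.Z n.Z) (fun k' => keepRow r n.Z n.N k' ||| one' k c k')

theorem contra_false {g : GL (Fin 27) F} {C S : List ℕ} (hlen : S.length < C.length) (hnd : C.Nodup)
    (hC : ∀ c ∈ C, c < 27) (h : ∀ c ∈ C, ∀ k < 27, k ∉ S → ent g k c = 0) : False := by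
  classical
  let inc : Fin C.length → Fin 27 := fun i => ⟨C.get i, hC _ (List.get_mem C i)⟩
  have hinc : Function.Injective inc := fun a b e =>
    List.nodup_iff_injective_get.mp hnd (congrArg Fin.val e)
  let L : (Fin C.length → F) →ₗ[F] (Fin S.length → F) :=
    { toFun := fun lam j => ∑ i, lam i * ent g (S.get j) (C.get i)
      map_add' := fun a b => by funext j; simp [add_mul, Finset.sum_add_distrib]
      map_smul' := fun a b => by funext j; simp [Finset.mul_sum, mul_assoc] }
  have hker : LinearMap.ker L ≠ ⊥ := by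
    intro e
    have := LinearMap.finrank_le_finrank_of_injective (LinearMap.ker_eq_bot.mp e)
    simp at this
    omega
  obtain ⟨lam, hlam, hne⟩ := Submodule.exists_mem_ne_zero_of_ne_bot hker
  have hzero : (g : Matrix (Fin 27) (Fin 27) F) *ᵥ (∑ i, lam i • bv F (C.get i)) = 0 := by
    funext w
    rw [Matrix.mulVec_sum, Finset.sum_apply, Pi.zero_apply]
    have e : ∀ i, ((g : Matrix (Fin 27) (Fin 27) F) *ᵥ (lam i • bv F (C.get i))) w =
        lam i * ent g w (C.get i) := by
      intro i
      rw [Matrix.mulVec_smul, Pi.smul_apply, smul_eq_mul, ent, cw_val]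
    rw [Finset.sum_congr rfl fun i _ => e i]
    by_cases hw : (w : ℕ) ∈ S
    · obtain ⟨j, hj⟩ := List.get_of_mem hw
      have := congrFun (LinearMap.mem_ker.mp hlam) j
      simp only [L, LinearMap.coe_mk, AddHom.coe_mk, hj, Pi.zero_apply] at this
      exact this
    · refine Finset.sum_eq_zero fun i _ => ?_
      rw [h _ (List.get_mem C i) w w.isLt hw, mul_zero]
  have hz : (∑ i, lam i • bv F (C.get i)) = 0 := by
    have := congrArg (((g⁻¹ : GL (Fin 27) F) : Matrix (Fin 27) (Fin 27) F) *ᵥ ·) hzero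
    simpa [Matrix.mulVec_mulVec] using this
  apply hne
  funext i
  have := congrFun hz (inc i)
  rw [Finset.sum_apply, Finset.sum_eq_single i] at this
  · simpa [bv, inc] using this
  · intro j _ hj
    have : C.get i ≠ C.get j := fun e => hj (hinc (Fin.ext e)).symm
    simp [bv, inc] at this ⊢
    exact fun e => absurd e this
  · simp

/-- All nodes check. -/
noncomputable def okAll : Bool := allBelow (fun i => okNode i (nd i)) numNodes

theorem okAll_ok : okAll = true := by decide +kernel

theorem start_ok : Nat.beq (nd (numNodes - 1)).Z 0 = true ∧ Nat.beq (nd (numNodes - 1)).N 0 = true := by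
  decide +kernel

theorem reach_node (hF : ∃ s : F, s ≠ 0 ∧ s ≠ 1) : ∀ i < numNodes, ∀ g : GL (Fin 27) F,
    Sat (nd i).Z (nd i).N g → Reach g := by
  intro i
  induction i using Nat.strong_induction_on with
  | _ me ih =>
    intro hme g hg
    have hok := (allBelow_iff _ _).mp okAll_ok me hme
    generalize hn : nd me = n at hok hg
    obtain ⟨Z, N, rule⟩ := n
    have next' : ∀ {i : ℕ} {BZ BN : ℕ → ℕ} (g' : GL (Fin 27) F), Nat.blt i me = true →
        succOK i BZ BN = true → g' ∈ stab F →
        (∀ k < 27, ∀ c < 27, Nat.testBit (BZ k) c = true → ent g' k c = 0) →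
        (∀ k < 27, ∀ c < 27, Nat.testBit (BN k) c = true → ent g' k c ≠ 0) → Reach g' := by
      intro i BZ BN g' hi hs hm hz hn'
      have hi' := Nat.blt_eq.mp hi
      simp only [succOK, Bool.and_eq_true] at hs
      exact ih i hi' (hi'.trans hme) g' ⟨hm, fun k hk c hc h => hz k hk c hc (subRows_spec hs.1 hk hc h),
        fun k hk c hc h => hn' k hk c hc (subRows_spec hs.2 hk hc h)⟩
    have hz0 : ∀ k < 27, ∀ c < 27, Nat.testBit (rowB Z k) c = true → ent g k c = 0 :=
      fun k hk c hc h => hg.zero k hk c hc (testBit_rowB Z k c hc ▸ h)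
    have hn0 : ∀ k < 27, ∀ c < 27, Nat.testBit (rowB N k) c = true → ent g k c ≠ 0 :=
      fun k hk c hc h => hg.ne k hk c hc (testBit_rowB N k c hc ▸ h)
    cases rule with
    | goal =>
      simp only [okNode, allBelow_iff, Bool.or_eq_true] at hok
      refine ⟨1, one_mem _, fun k hk c hc hne => ?_⟩
      rw [one_mul]
      exact hg.zero k hk c hc ((hok k hk c hc).resolve_left fun e => hne (Nat.eq_of_beq_eq_true e))
    | goto i =>
      simp only [okNode, Bool.and_eq_true] at hok
      exact next' g hok.1 hok.2 hg.mem hz0 hn0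
    | contra C S =>
      simp only [okNode, Bool.and_eq_true, List.all_eq_true, decide_eq_true_eq, allBelow_iff, Bool.or_eq_true,
        List.contains_iff_mem] at hok
      obtain ⟨⟨⟨h1, h2⟩, h3⟩, h4⟩ := hok
      exact (contra_false (Nat.blt_eq.mp h1) h2 (fun c hc => Nat.blt_eq.mp (h3 c hc))
        fun c hc k hk hS => hg.zero k hk c (Nat.blt_eq.mp (h3 c hc)) ((h4 c hc k hk).resolve_left hS)).elim
    | split k c i j =>
      simp only [okNode, Bool.and_eq_true] at hok
      obtain ⟨⟨⟨⟨⟨hi, hj⟩, hk⟩, hc⟩, hA⟩, hB⟩ := hok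
      by_cases he : ent g k c = 0
      · refine next' g hi hA hg.mem (fun k' hk' c' hc' h => ?_) hn0
        rw [Nat.testBit_or, Bool.or_eq_true] at h
        rcases h with h | h
        · exact hz0 k' hk' c' hc' h
        · obtain ⟨rfl, rfl⟩ := testBit_one' h; exact he
      · refine next' g hj hB hg.mem hz0 (fun k' hk' c' hc' h => ?_)
        rw [Nat.testBit_or, Bool.or_eq_true] at h
        rcases h with h | h
        · exact hn0 k' hk' c' hc' h
        · obtain ⟨rfl, rfl⟩ := testBit_one' h; exact he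
    | ded x y k p q i =>
      simp only [okNode, Bool.and_eq_true] at hok
      obtain ⟨⟨⟨⟨⟨⟨hi, hx⟩, hy⟩, hk⟩, hA⟩, hxy⟩, hmatch⟩ := hok
      replace hx := Nat.blt_eq.mp hx
      replace hy := Nat.blt_eq.mp hy
      replace hk := Nat.blt_eq.mp hk
      set X := (g : Matrix (Fin 27) (Fin 27) F) *ᵥ bv F x with hX
      set Y := (g : Matrix (Fin 27) (Fin 27) F) *ᵥ bv F y with hY
      have hsum : (((if Nat.beq x y then prodQ k else prodB k)).map (pval X Y)).sum = 0 := by
        by_cases hb : Nat.beq x y = true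
        · rw [if_pos hb, hY, ← Nat.eq_of_beq_eq_true hb, ← hX, ← Q27_third X hk]
          exact sing_Q (stab_sing hg.mem (sing_bv x)) hF _
        · rw [if_neg hb, ← B27_third X Y hk]
          obtain ⟨z, hz⟩ := exists_preimage g (bv F k)
          rw [← hz, stab_B hg.mem, B27_bv_zero]
          simp only [Bool.or_eq_true] at hxy
          exact hxy.resolve_left hb
      split at hmatch
      next e hfilt =>
        have hd : ∀ a ∈ (if Nat.beq x y then prodQ k else prodB k), alive Z x y a = false → pval X Y a = 0 := by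
          intro a ha hdead
          simp only [alive, Bool.not_eq_false', Bool.or_eq_true] at hdead
          have hb : ∀ a ∈ (if Nat.beq x y then prodQ k else prodB k), a.1 < 27 ∧ a.2.1 < 27 := by
            have hall : ∀ k < 27, (∀ a ∈ prodQ k, a.1 < 27 ∧ a.2.1 < 27) ∧
                ∀ a ∈ prodB k, a.1 < 27 ∧ a.2.1 < 27 := by decide +kernel
            intro a ha
            split at ha
            exacts [(hall k hk).1 a ha, (hall k hk).2 a ha]
          rcases hdead with h | h
          · have := hg.zero _ (hb a ha).1 x hx h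
            simp only [ent, ← hX] at this
            simp [pval, this]
          · have := hg.zero _ (hb a ha).2 y hy h
            simp only [ent, ← hY] at this
            simp [pval, this]
        rw [sum_one_alive (pval X Y) (alive Z x y) hd hfilt, pval] at hsum
        simp only [Bool.and_eq_true, Bool.or_eq_true] at hmatch
        obtain ⟨⟨he1, he2⟩, hor⟩ := hmatch
        replace he1 := Nat.blt_eq.mp he1
        replace he2 := Nat.blt_eq.mp he2
        have hprod : cw X e.1 * cw Y e.2.1 = 0 := (mul_eq_zero.mp hsum).resolve_left (sb_ne_zero _)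
        refine next' g hi hA hg.mem (fun k' hk' c' hc' h => ?_) hn0
        rw [Nat.testBit_or, Bool.or_eq_true] at h
        rcases h with h | h
        · exact hz0 k' hk' c' hc' h
        obtain ⟨rfl, rfl⟩ := testBit_one' h
        rcases hor with ⟨⟨hp, hq⟩, hN⟩ | ⟨⟨hp, hq⟩, hN⟩
        · rw [Nat.eq_of_beq_eq_true hp, Nat.eq_of_beq_eq_true hq]
          exact (mul_eq_zero.mp hprod).resolve_right (hg.ne _ he2 y hy hN)
        · rw [Nat.eq_of_beq_eq_true hp, Nat.eq_of_beq_eq_true hq]
          exact (mul_eq_zero.mp hprod).resolve_left (hg.ne _ he1 x hx hN)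
      next => simp at hmatch
    | clear r k c i =>
      simp only [okNode, Bool.and_eq_true, Bool.not_eq_true'] at hok
      obtain ⟨⟨⟨⟨⟨⟨hi, hr⟩, hk⟩, hc⟩, hcode⟩, hN⟩, hA⟩ := hok
      replace hr := Nat.blt_eq.mp hr
      replace hk := Nat.blt_eq.mp hk
      replace hc := Nat.blt_eq.mp hc
      have hne : code r k ≠ 0 := fun e => by rw [e] at hcode; simp at hcode
      have hs := hg.ne _ (src_lt hr hk) c hc hN
      set t : F := -(ent g k c) / (sc (code r k) * ent g (src (code r k)) c) with ht
      refine reach_mul (r := r) (t := t) ?_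
      refine next' _ hi hA (mul_mem (xm_mem_stab r t) hg.mem) (fun k' hk' c' hc' h => ?_) (fun k' hk' c' hc' h => ?_)
      · rw [Nat.testBit_or, Bool.or_eq_true] at h
        rcases h with h | h
        · obtain ⟨ha, e⟩ := ent_keep hr t hg Z hk' hc' h
          rw [e]; exact hg.zero k' hk' c' hc' ha
        · obtain ⟨rfl, rfl⟩ := testBit_one' h
          rw [ent_mul_xm hr t g hk, if_neg hne, ht]
          have := sc_ne_zero (F := F) (code r k')
          field_simp
          ring
      · obtain ⟨ha, e⟩ := ent_keep hr t hg N hk' hc' h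
        rw [e]; exact hg.ne k' hk' c' hc' ha
    | move r k c i =>
      simp only [okNode, Bool.and_eq_true, Bool.not_eq_true'] at hok
      obtain ⟨⟨⟨⟨⟨⟨⟨hi, hr⟩, hk⟩, hc⟩, hcode⟩, hZ⟩, hN⟩, hA⟩ := hok
      replace hr := Nat.blt_eq.mp hr
      replace hk := Nat.blt_eq.mp hk
      replace hc := Nat.blt_eq.mp hc
      have hne : code r k ≠ 0 := fun e => by rw [e] at hcode; simp at hcode
      have hs := hg.ne _ (src_lt hr hk) c hc hN
      refine reach_mul (r := r) (t := 1) ?_
      refine next' _ hi hA (mul_mem (xm_mem_stab r 1) hg.mem) (fun k' hk' c' hc' h => ?_) (fun k' hk' c' hc' h => ?_)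
      · obtain ⟨ha, e⟩ := ent_keep hr 1 hg Z hk' hc' h
        rw [e]; exact hg.zero k' hk' c' hc' ha
      · rw [Nat.testBit_or, Bool.or_eq_true] at h
        rcases h with h | h
        · obtain ⟨ha, e⟩ := ent_keep hr 1 hg N hk' hc' h
          rw [e]; exact hg.ne k' hk' c' hc' ha
        · obtain ⟨rfl, rfl⟩ := testBit_one' h
          rw [ent_mul_xm hr 1 g hk, if_neg hne, hg.zero _ hk _ hc hZ, zero_add, one_mul]
          exact mul_ne_zero (sc_ne_zero _) hs

/-- Every isometry becomes diagonal after multiplication by root elements. -/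
theorem exists_diag (hF : ∃ s : F, s ≠ 0 ∧ s ≠ 1) {g : GL (Fin 27) F} (hg : g ∈ stab F) : Reach g := by
  refine reach_node hF (numNodes - 1) (by decide +kernel) g ⟨hg, ?_, ?_⟩ <;>
    intro k _ c _ h
  · rw [Nat.eq_of_beq_eq_true start_ok.1] at h; simp [has] at h
  · rw [Nat.eq_of_beq_eq_true start_ok.2] at h; simp [has] at h

end Cfsg.Agent.Chev.E6Cubic
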